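import Cfsg.Agent.Lib.Helper13.Asch.Defs2

set_option autoImplicit false

namespace Cfsg.Agent.Lib.Helper60.Asch

open Cfsg Cfsg.Geo Matrix Cfsg.Agent.Lib.Helper13.Asch
open scoped Kronecker MatrixGroups

variable {ι : Type} [Fintype ι] [DecidableEq ι] {F : Type*} [Field F]

lemma scalar_commute {c : GL ι F} (hc : c ∈ scalars ι F) (x : GL ι F) : c * x = x * c := by
  rw [mem_scalars_iff] at hc
  obtain ⟨a, ha⟩ := hc
  apply Units.ext
  rw [Units.val_mul, Units.val_mul, ha]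
  simp

lemma mem_sup_scalars {N : Subgroup (GL ι F)} {g : GL ι F} :
    g ∈ N ⊔ scalars ι F ↔ ∃ x ∈ N, ∃ c ∈ scalars ι F, g = x * c := by
  rw [← SetLike.mem_coe, Subgroup.mul_normal, Set.mem_mul]
  constructor
  · rintro ⟨x, hx, c, hc, rfl⟩
    exact ⟨x, hx, c, hc, rfl⟩
  · rintro ⟨x, hx, c, hc, rfl⟩
    exact ⟨x, hx, c, hc, rfl⟩

lemma env_mono {N M : Subgroup (GL ι F)} (h : N ≤ M) : env N ≤ env M := by
  apply Algebra.adjoin_mono
  rintro _ ⟨g, hg, rfl⟩
  exact ⟨g, h hg, rfl⟩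

/-- K0 -/
theorem sympData_of_abelian [Finite F] {H N : Subgroup (GL ι F)} (h : MinNormal H N)
    (henv : env N = ⊤) (hab : ⁅N, N⁆ ≤ scalars ι F) : ∃ r, SympData H (N ⊔ scalars ι F) r := by
  classical
  set Z := scalars ι F with hZ
  have hcomm : ∀ x ∈ N, ∀ y ∈ N, x * y * x⁻¹ * y⁻¹ ∈ Z := fun x hx y hy =>
    hab (Subgroup.commutator_mem_commutator hx hy)
  have hcq : ∀ x ∈ N, ∀ y ∈ N, Commute (QuotientGroup.mk' Z x) (QuotientGroup.mk' Z y) := by
    intro x hx y hy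
    have h1 := hcomm x hx y hy
    rw [← QuotientGroup.eq_one_iff, ← QuotientGroup.mk'_apply, map_mul, map_mul, map_mul, map_inv,
      map_inv, mul_inv_eq_one, mul_inv_eq_iff_eq_mul] at h1
    exact h1
  -- an element of prime order modulo scalars
  obtain ⟨x0, hx0N, hx0Z⟩ := SetLike.not_le_iff_exists.1 h.not_sc
  have hk1 : orderOf (QuotientGroup.mk' Z x0) ≠ 1 := by
    rw [Ne, orderOf_eq_one_iff, QuotientGroup.mk'_apply, QuotientGroup.eq_one_iff]
    exact hx0Z
  set k := orderOf (QuotientGroup.mk' Z x0) with hk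
  have hkpos : 0 < k := orderOf_pos _
  set r := k.minFac with hr
  have hrp : r.Prime := Nat.minFac_prime hk1
  obtain ⟨m, hm⟩ : r ∣ k := Nat.minFac_dvd k
  have hmpos : 0 < m := by
    rcases Nat.eq_zero_or_pos m with h0 | h0
    · rw [h0, mul_zero] at hm; omega
    · exact h0
  have hmlt : m < k := by
    rw [hm]
    have := hrp.two_le
    nlinarith
  -- the subgroup of elements of exponent r modulo scalars
  let M : Subgroup (GL ι F) :=
    { carrier := {x | x ∈ N ∧ x ^ r ∈ Z}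
      mul_mem' := by
        rintro a b ⟨ha, ha'⟩ ⟨hb, hb'⟩
        refine ⟨N.mul_mem ha hb, ?_⟩
        rw [← QuotientGroup.eq_one_iff, ← QuotientGroup.mk'_apply] at ha' hb' ⊢
        rw [map_pow] at ha' hb' ⊢
        rw [map_mul, (hcq a ha b hb).mul_pow, ha', hb', one_mul]
      one_mem' := ⟨N.one_mem, by rw [one_pow]; exact Z.one_mem⟩
      inv_mem' := by
        rintro a ⟨ha, ha'⟩
        exact ⟨N.inv_mem ha, by rw [inv_pow]; exact Z.inv_mem ha'⟩ }
  have hMmem : ∀ x, x ∈ M ↔ x ∈ N ∧ x ^ r ∈ Z := fun x => Iff.rfl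
  have hMN : M = N := by
    have h5 : M = H ⊓ scalars ι F ∨ M = N := by
      apply h.min M
      · intro x hx
        exact ⟨h.sc_le hx, Z.pow_mem hx.2 r⟩
      · intro x hx
        exact hx.1
      · intro g hg x hx
        refine ⟨h.nrm g hg x hx.1, ?_⟩
        rw [conj_pow]
        exact (scalars_normal (ι := ι) (F := F)).conj_mem _ hx.2 g
    rcases h5 with h1 | h1
    · exfalso
      have h2 : x0 ^ m ∈ M := by
        refine ⟨N.pow_mem hx0N m, ?_⟩
        rw [← pow_mul, mul_comm, ← hm, ← QuotientGroup.eq_one_iff, ← QuotientGroup.mk'_apply,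
          map_pow, hk, pow_orderOf_eq_one]
      rw [h1] at h2
      have h3 : x0 ^ m ∈ Z := h2.2
      rw [← QuotientGroup.eq_one_iff, ← QuotientGroup.mk'_apply, map_pow] at h3
      exact pow_ne_one_of_lt_orderOf hmpos.ne' hmlt h3
    · exact h1
  have hpowN : ∀ x ∈ N, x ^ r ∈ Z := by
    intro x hx
    rw [← hMN] at hx
    exact hx.2
  refine ⟨r, hrp, le_sup_right, ?_, ?_, ?_, ?_, ?_⟩
  · intro g hg y hy
    rw [mem_sup_scalars] at hy ⊢
    obtain ⟨x, hx, c, hc, rfl⟩ := hy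
    refine ⟨g * x * g⁻¹, h.nrm g hg x hx, g * c * g⁻¹,
      (scalars_normal (ι := ι) (F := F)).conj_mem _ hc g, ?_⟩
    group
  · intro a ha b hb
    rw [mem_sup_scalars] at ha hb
    obtain ⟨x, hx, c, hc, rfl⟩ := ha
    obtain ⟨y, hy, d, hd, rfl⟩ := hb
    have e : x * c * (y * d) * (x * c)⁻¹ * (y * d)⁻¹ = x * y * x⁻¹ * y⁻¹ := by
      have h1 : ∀ g, c * g = g * c := scalar_commute hc
      have h2 : ∀ g, d * g = g * d := scalar_commute hd
      calc x * c * (y * d) * (x * c)⁻¹ * (y * d)⁻¹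
          = x * (c * y) * (d * c⁻¹) * x⁻¹ * d⁻¹ * y⁻¹ := by group
        _ = x * (y * c) * (c⁻¹ * d) * x⁻¹ * d⁻¹ * y⁻¹ := by rw [h1 y, h2 c⁻¹]
        _ = x * y * (d * x⁻¹) * d⁻¹ * y⁻¹ := by group
        _ = x * y * (x⁻¹ * d) * d⁻¹ * y⁻¹ := by rw [h2 x⁻¹]
        _ = x * y * x⁻¹ * y⁻¹ := by group
    rw [e]
    exact hcomm x hx y hy
  · exact top_le_iff.1 (henv ▸ env_mono le_sup_left)
  · intro a ha
    rw [mem_sup_scalars] at ha
    obtain ⟨x, hx, c, hc, rfl⟩ := ha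
    have hxc : Commute x c := (scalar_commute hc x).symm
    rw [hxc.mul_pow]
    exact Z.mul_mem (hpowN x hx) (Z.pow_mem hc r)
  · intro M' h1 h2 h3
    have h5 : M' ⊓ N = H ⊓ scalars ι F ∨ M' ⊓ N = N := by
      apply h.min (M' ⊓ N) _ inf_le_right
      · intro g hg x hx
        exact ⟨h3 g hg x hx.1, h.nrm g hg x hx.2⟩
      · exact le_inf (inf_le_right.trans h1) h.sc_le
    rcases h5 with h4 | h4
    · left
      apply le_antisymm _ h1
      intro g hg
      have hg' := h2 hg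
      rw [mem_sup_scalars] at hg'
      obtain ⟨x, hx, c, hc, rfl⟩ := hg'
      have hxM : x ∈ M' := by
        have := M'.mul_mem hg (M'.inv_mem (h1 hc))
        rwa [mul_inv_cancel_right] at this
      have hx2 : x ∈ M' ⊓ N := ⟨hxM, hx⟩
      rw [h4] at hx2
      exact Z.mul_mem hx2.2 hc
    · right
      apply le_antisymm h2
      exact sup_le (h4 ▸ inf_le_left) h1

end Cfsg.Agent.Lib.Helper60.Asch
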