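import Cfsg.Agent.Lib.Helper60.Asch.Cls
import Cfsg.Agent.Lib.Helper60.Asch.K0
import Cfsg.Agent.Lib.Helper96.Asch.L0b
import Cfsg.Agent.Lib.Helper96.Asch.L0c
import Cfsg.Agent.Lib.Helper35.Asch.L8
import Cfsg.Agent.Lib.Helper55.Asch.L9a
import Cfsg.Agent.Lib.Helper55.Asch.L9b
import Cfsg.Agent.Lib.Helper55.Asch.L9c
import Cfsg.Agent.Lib.Helper55.Asch.L9d
import Cfsg.Agent.Lib.Helper55.Asch.L9e

set_option autoImplicit false

namespace Cfsg.Agent.Lib.Helper60.Asch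

open Cfsg Cfsg.Geo Matrix Cfsg.Agent.Lib.Helper13.Asch
open Cfsg.Agent.Lib.Helper96.Asch Cfsg.Agent.Lib.Helper35.Asch Cfsg.Agent.Lib.Helper55.Asch
open scoped Kronecker MatrixGroups commutatorElement

variable {ι : Type} [Fintype ι] [DecidableEq ι] {F : Type*} [Field F]

lemma commutator_scalar_mul {c d : GL ι F} (hc : c ∈ scalars ι F) (hd : d ∈ scalars ι F)
    (x y : GL ι F) : ⁅x * c, y * d⁆ = ⁅x, y⁆ := by
  have h1 : ∀ g, c * g = g * c := scalar_commute hc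
  have h2 : ∀ g, d * g = g * d := scalar_commute hd
  rw [commutatorElement_def, commutatorElement_def]
  calc x * c * (y * d) * (x * c)⁻¹ * (y * d)⁻¹
      = x * (c * y) * (d * c⁻¹) * x⁻¹ * d⁻¹ * y⁻¹ := by group
    _ = x * (y * c) * (c⁻¹ * d) * x⁻¹ * d⁻¹ * y⁻¹ := by rw [h1 y, h2 c⁻¹]
    _ = x * y * (d * x⁻¹) * d⁻¹ * y⁻¹ := by group
    _ = x * y * (x⁻¹ * d) * d⁻¹ * y⁻¹ := by rw [h2 x⁻¹]
    _ = x * y * x⁻¹ * y⁻¹ := by group

/-- adding scalars does not change the commutator subgroup -/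
lemma commutator_sup_scalars {M Z : Subgroup (GL ι F)} (hZ : Z ≤ scalars ι F) :
    ⁅M ⊔ Z, M ⊔ Z⁆ = ⁅M, M⁆ := by
  apply le_antisymm
  · rw [Subgroup.commutator_le]
    intro g₁ h₁ g₂ h₂
    have h₁' : g₁ ∈ M ⊔ scalars ι F := (sup_le_sup_left hZ M) h₁
    have h₂' : g₂ ∈ M ⊔ scalars ι F := (sup_le_sup_left hZ M) h₂
    rw [mem_sup_scalars] at h₁' h₂'
    obtain ⟨x, hx, c, hc, rfl⟩ := h₁'
    obtain ⟨y, hy, d, hd, rfl⟩ := h₂'
    rw [commutator_scalar_mul hc hd]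
    exact Subgroup.commutator_mem_commutator hx hy
  · exact Subgroup.commutator_mono le_sup_left le_sup_left

lemma nrm_iff_map {H N : Subgroup (GL ι F)} :
    Nrm H N ↔ ∀ h ∈ H, N.map (MulAut.conj h).toMonoidHom ≤ N := by
  constructor
  · rintro hn h hh _ ⟨x, hx, rfl⟩
    exact hn h hh x hx
  · intro hn h hh x hx
    exact hn h hh ⟨x, hx, rfl⟩

lemma nrm_sup {H M Z : Subgroup (GL ι F)} (h1 : Nrm H M) (h2 : Nrm H Z) : Nrm H (M ⊔ Z) := by
  rw [nrm_iff_map] at h1 h2 ⊢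
  intro h hh
  rw [Subgroup.map_sup]
  exact sup_le_sup (h1 h hh) (h2 h hh)

lemma nrm_commutator {H N : Subgroup (GL ι F)} (h1 : Nrm H N) : Nrm H ⁅N, N⁆ := by
  rw [nrm_iff_map] at h1 ⊢
  intro h hh
  rw [Subgroup.map_commutator]
  exact Subgroup.commutator_mono (h1 h hh) (h1 h hh)

lemma nrm_of_le_scalars (H : Subgroup (GL ι F)) {Z : Subgroup (GL ι F)} (hZ : Z ≤ scalars ι F) :
    Nrm H Z := by
  intro h _ x hx
  rw [← scalar_commute (hZ hx) h, mul_inv_cancel_right]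
  exact hx

/-- normalised by `P`, hence by `P ⊔ Z` -/
lemma nrm_sup_left {P Z M : Subgroup (GL ι F)} (hZ : Z ≤ scalars ι F) (h : Nrm P M) :
    Nrm (P ⊔ Z) M := by
  intro g hg x hx
  have hg' : g ∈ P ⊔ scalars ι F := (sup_le_sup_left hZ P) hg
  rw [mem_sup_scalars] at hg'
  obtain ⟨p, hp, c, hc, rfl⟩ := hg'
  have : p * c * x * (p * c)⁻¹ = p * x * p⁻¹ := by
    calc p * c * x * (p * c)⁻¹ = p * (c * x) * c⁻¹ * p⁻¹ := by group
      _ = p * (x * c) * c⁻¹ * p⁻¹ := by rw [scalar_commute hc x]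
      _ = p * x * p⁻¹ := by group
  rw [this]
  exact h p hp x hx

/-- simplicity of `P / (P ∩ S)` from a dichotomy for the `P`-invariant subgroups of `P` -/
lemma simple_quot {G : Type*} [Group G] (P S : Subgroup G) [S.Normal] (hne : ¬ P ≤ S)
    (core : ∀ M : Subgroup G, M ≤ P → (∀ g ∈ P, ∀ x ∈ M, g * x * g⁻¹ ∈ M) → M ≤ S ∨ M = P) :
    IsSimpleGroup (P ⧸ S.subgroupOf P) := by
  have hnt : Nontrivial (P ⧸ S.subgroupOf P) := by
    rw [QuotientGroup.nontrivial_iff]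
    intro htop
    rw [Subgroup.subgroupOf_eq_top] at htop
    exact hne htop
  refine { toNontrivial := hnt, eq_bot_or_eq_top_of_normal := ?_ }
  intro K hK
  have hKc : (K.comap (QuotientGroup.mk' (S.subgroupOf P))).Normal := hK.comap _
  obtain ⟨M', hM'⟩ : ∃ M', M' = K.comap (QuotientGroup.mk' (S.subgroupOf P)) := ⟨_, rfl⟩
  rw [← hM'] at hKc
  have hKM : K = M'.map (QuotientGroup.mk' (S.subgroupOf P)) := by
    rw [hM', Subgroup.map_comap_eq_self_of_surjective (QuotientGroup.mk'_surjective _)]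
  have hnM : ∀ g ∈ P, ∀ x ∈ M'.map P.subtype, g * x * g⁻¹ ∈ M'.map P.subtype := by
    rintro g hg _ ⟨x, hx, rfl⟩
    exact ⟨⟨g, hg⟩ * x * ⟨g, hg⟩⁻¹, hKc.conj_mem x hx ⟨g, hg⟩, rfl⟩
  rcases core (M'.map P.subtype) (Subgroup.map_subtype_le _) hnM with h1 | h1
  · left
    rw [hKM, eq_bot_iff]
    rintro _ ⟨x, hx, rfl⟩
    rw [Subgroup.mem_bot, QuotientGroup.mk'_apply, QuotientGroup.eq_one_iff,
      Subgroup.mem_subgroupOf]
    exact h1 ⟨x, hx, rfl⟩
  · right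
    have h2 : M' = ⊤ := by
      rw [eq_top_iff]
      intro x _
      have h3 : (x : G) ∈ M'.map P.subtype := by rw [h1]; exact x.2
      obtain ⟨y, hy, hyx⟩ := h3
      have : y = x := Subtype.ext hyx
      rwa [← this]
    rw [hKM, h2, ← MonoidHom.range_eq_map,
      MonoidHom.range_eq_top.2 (QuotientGroup.mk'_surjective _)]

lemma commutator_le_of_comm_quot {G : Type*} [Group G] (P S : Subgroup G) [S.Normal]
    (hc : IsMulCommutative (P ⧸ S.subgroupOf P)) : ⁅P, P⁆ ≤ S := by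
  rw [Subgroup.commutator_le]
  intro a ha b hb
  have h1 := hc.is_comm.comm
    (QuotientGroup.mk' (S.subgroupOf P) ⟨a, ha⟩) (QuotientGroup.mk' (S.subgroupOf P) ⟨b, hb⟩)
  have h2 : QuotientGroup.mk' (S.subgroupOf P)
      (⟨a, ha⟩ * ⟨b, hb⟩ * ⟨a, ha⟩⁻¹ * ⟨b, hb⟩⁻¹) = 1 := by
    rw [map_mul, map_mul, map_mul, map_inv, map_inv, h1]
    group
  rw [QuotientGroup.mk'_apply, QuotientGroup.eq_one_iff, Subgroup.mem_subgroupOf] at h2
  rw [commutatorElement_def]
  exact h2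

/-- K1 -/
theorem residual_of_simple [Fintype F] {n : ℕ} (hn : 3 ≤ n) {H N : Subgroup (GL (Fin n) F)}
    (hQP : QP H) (h : MinNormal H N) (hperf : ¬ ⁅N, N⁆ ≤ scalars (Fin n) F)
    (hsimple : ∀ L : Subgroup (GL (Fin n) F), H ⊓ scalars (Fin n) F ≤ L → L ≤ N → Nrm N L →
      L = H ⊓ scalars (Fin n) F ∨ L = N) :
    Cls n H ∨ InLinearResidualClass H := by
  classical
  obtain ⟨Z, hZdef⟩ : ∃ Z, Z = H ⊓ scalars (Fin n) F := ⟨_, rfl⟩
  rw [← hZdef] at hsimple
  have hZsc : Z ≤ scalars (Fin n) F := hZdef ▸ inf_le_right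
  have hZN : Z ≤ N := hZdef ▸ h.sc_le
  obtain ⟨P, hPdef⟩ : ∃ P, P = ⁅N, N⁆ := ⟨_, rfl⟩
  rw [← hPdef] at hperf
  have hNN : Nrm N N := fun g hg x hx => N.mul_mem (N.mul_mem hg hx) (N.inv_mem hg)
  have hPN : P ≤ N := by
    rw [hPdef, Subgroup.commutator_le]
    intro a ha b hb
    rw [commutatorElement_def]
    exact N.mul_mem (N.mul_mem (N.mul_mem ha hb) (N.inv_mem ha)) (N.inv_mem hb)
  have hPH : P ≤ H := hPN.trans h.le
  have hnrmP : Nrm H P := hPdef ▸ nrm_commutator h.nrm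
  have hnrmNP : Nrm N P := hPdef ▸ nrm_commutator hNN
  have hPZ : P ⊔ Z = N := by
    rcases hsimple (P ⊔ Z) le_sup_right (sup_le hPN hZN)
      (nrm_sup hnrmNP (nrm_of_le_scalars N hZsc)) with h1 | h1
    · exact (hperf ((le_sup_left.trans h1.le).trans hZsc)).elim
    · exact h1
  have hPP : ⁅P, P⁆ = P := by
    rw [← commutator_sup_scalars hZsc, hPZ, hPdef]
  have henv : env P = ⊤ := by
    rcases hQP P hPH hnrmP with h1 | h1
    · exact (hperf h1).elim
    · exact h1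
  have evenn : ∀ f : (Fin n → F) → (Fin n → F) → F, IsSymplecticForm f → Even n ∧ 4 ≤ n := by
    intro f hf
    have h1 := even_card_of_symplectic f hf
    rw [Fintype.card_fin] at h1
    refine ⟨h1, ?_⟩
    obtain ⟨k, hk⟩ := h1
    omega
  by_cases hsub : ∃ F₀ : Subfield F, F₀ ≠ ⊤ ∧ RealisableOver F₀ (matrixSet P)
  · obtain ⟨F₀, hF₀, hr⟩ := hsub
    obtain ⟨F₁, r, B, hr1, hr2, hr3⟩ := subfield_of_realisable H P hnrmP henv F₀ hF₀ hr
    exact Or.inl (cls_subfield hr1 hr2 hr3)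
  by_cases hsy : ∃ f : (Fin n → F) → (Fin n → F) → F, IsSymplecticForm f ∧ FixesForm (matrixSet P) f
  · obtain ⟨f, hf, hfix⟩ := hsy
    exact Or.inl (cls_symplectic hf (evenn f hf).1 (evenn f hf).2
      (sim_of_fixes_bilin H P hnrmP henv f hf.bilinear hf.nondegenerate hfix))
  by_cases hq : ∃ Q : (Fin n → F) → F, IsNondegenerateQuadraticForm Q ∧ FixesQuadForm (matrixSet P) Q
  · obtain ⟨Q, hQ, hfix⟩ := hq
    by_cases ho : Odd (Fintype.card F)
    · exact Or.inl (cls_quadratic hQ ho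
        (sim_of_fixes_quad (two_ne_zero_of_odd ho) H P hnrmP henv Q hQ hfix))
    · obtain ⟨hs, -, hfx⟩ := polar_symplectic (two_eq_zero_of_not_odd ho) Q hQ
      exact (hsy ⟨_, hs, hfx _ hfix⟩).elim
  by_cases hu : ∃ (σ : F ≃+* F) (f : (Fin n → F) → (Fin n → F) → F),
      IsUnitaryForm σ f ∧ FixesForm (matrixSet P) f
  · obtain ⟨σ, f, hf, hfix⟩ := hu
    exact Or.inl (cls_unitary hf (sim_of_fixes_unitary H P hnrmP henv σ f hf hfix))
  right
  -- the core dichotomy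
  have core : ∀ M : Subgroup (GL (Fin n) F), M ≤ P → Nrm P M → M ≤ scalars (Fin n) F ∨ M = P := by
    intro M hMP hnM
    have hnN : Nrm N (M ⊔ Z) := by
      rw [← hPZ]
      exact nrm_sup (nrm_sup_left hZsc hnM) (nrm_of_le_scalars _ hZsc)
    rcases hsimple (M ⊔ Z) le_sup_right (sup_le (hMP.trans hPN) hZN) hnN with h1 | h1
    · left
      exact (le_sup_left.trans h1.le).trans hZsc
    · right
      apply le_antisymm hMP
      have h2 : P = ⁅M, M⁆ := by
        rw [hPdef, ← h1, commutator_sup_scalars hZsc]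
      rw [h2, Subgroup.commutator_le]
      intro a ha b hb
      rw [commutatorElement_def]
      exact M.mul_mem (M.mul_mem (M.mul_mem ha hb) (M.inv_mem ha)) (M.inv_mem hb)
  refine ⟨P, ⟨hPH, hnrmP, hPP, ?_, ?_, ?_, absIrr_of_env_top henv, ?_⟩, hq, hsy, hu⟩
  · exact simple_quot P (scalars (Fin n) F) hperf core
  · intro hc
    apply hperf
    rw [← hPP]
    exact commutator_le_of_comm_quot P (scalars (Fin n) F) hc
  · -- centralizer
    intro g hg hgP
    have h1 : P ≤ Subgroup.centralizer {g} := by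
      rw [← hPP, Subgroup.commutator_le]
      intro a ha b hb
      rw [Subgroup.mem_centralizer_singleton_iff]
      have ea : g * a * g⁻¹ = a * (g * a * g⁻¹ * a⁻¹) := by
        rw [← scalar_commute (hgP a ha) a]
        group
      have eb : g * b * g⁻¹ = b * (g * b * g⁻¹ * b⁻¹) := by
        rw [← scalar_commute (hgP b hb) b]
        group
      have h3 : g * ⁅a, b⁆ * g⁻¹ = ⁅a, b⁆ := by
        have h4 : g * ⁅a, b⁆ * g⁻¹ = ⁅g * a * g⁻¹, g * b * g⁻¹⁆ := by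
          rw [commutatorElement_def, commutatorElement_def]
          group
        rw [h4, ea, eb, commutator_scalar_mul (hgP a ha) (hgP b hb)]
      rw [mul_inv_eq_iff_eq_mul] at h3
      exact h3.symm
    obtain ⟨c, hc⟩ := scalar_of_commute henv g.1 (by
      intro x hx
      have h2 := h1 hx
      rw [Subgroup.mem_centralizer_singleton_iff] at h2
      rw [← Units.val_mul, ← Units.val_mul, h2])
    rw [mem_scalars_iff]
    have : Nonempty (Fin n) := ⟨⟨0, by omega⟩⟩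
    have hne0 : c ≠ 0 := by
      intro h0
      rw [h0, zero_smul] at hc
      exact g.ne_zero hc
    exact ⟨Units.mk0 c hne0, hc⟩
  · intro F₀ hF₀ hr
    exact hsub ⟨F₀, hF₀, hr⟩

end Cfsg.Agent.Lib.Helper60.Asch
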