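import Cfsg.Agent.Lib.Helper60.Asch.Cls
import Cfsg.Agent.Lib.Helper58.Asch.L0a
import Cfsg.Agent.Lib.Helper73.Asch.L1
import Cfsg.Agent.Lib.Helper73.Asch.L2b
import Cfsg.Agent.Lib.Helper58.Asch.L3
import Cfsg.Agent.Lib.Helper79.Asch.L4
import Cfsg.Agent.Lib.Helper79.Asch.L5
import Cfsg.Agent.Lib.Helper35.Asch.L6
import Cfsg.Agent.Lib.Helper35.Asch.L7a
import Cfsg.Agent.Lib.Helper35.Asch.L7c
import Cfsg.Agent.Lib.Helper55.Asch.L9d

set_option autoImplicit false

namespace Cfsg.Agent.Lib.Helper60.Asch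

open Cfsg Cfsg.Geo Matrix Cfsg.Agent.Lib.Helper13.Asch
open Cfsg.Agent.Lib.Helper58.Asch Cfsg.Agent.Lib.Helper73.Asch Cfsg.Agent.Lib.Helper79.Asch
  Cfsg.Agent.Lib.Helper35.Asch Cfsg.Agent.Lib.Helper55.Asch
open scoped Kronecker MatrixGroups

variable {ι : Type} [Fintype ι] [DecidableEq ι] {F : Type*} [Field F]

/-- the centre of a normalised subalgebra is normalised -/
lemma normalizer_center {A : Subalgebra F (Matrix ι ι F)} {g : GL ι F}
    (hg : g ∈ subalgebraNormalizer A) :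
    g ∈ subalgebraNormalizer (A ⊓ Subalgebra.centralizer F (A : Set (Matrix ι ι F))) := by
  intro k
  have hg' : ∀ k, k ∈ A ↔ g.1 * k * (g⁻¹ : GL ι F).1 ∈ A := hg
  have e1 : (g⁻¹ : GL ι F).1 * g.1 = 1 := by rw [← Units.val_mul, inv_mul_cancel, Units.val_one]
  have e2 : g.1 * (g⁻¹ : GL ι F).1 = 1 := by rw [← Units.val_mul, mul_inv_cancel, Units.val_one]
  rw [Algebra.mem_inf, Algebra.mem_inf, ← hg' k, Subalgebra.mem_centralizer_iff,
    Subalgebra.mem_centralizer_iff]
  refine and_congr_right fun _ => ?_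
  constructor
  · intro h a ha
    have ha' : (g⁻¹ : GL ι F).1 * a * g.1 ∈ A := by
      rw [hg']
      have : g.1 * ((g⁻¹ : GL ι F).1 * a * g.1) * (g⁻¹ : GL ι F).1 = a := by
        calc g.1 * ((g⁻¹ : GL ι F).1 * a * g.1) * (g⁻¹ : GL ι F).1
            = (g.1 * (g⁻¹ : GL ι F).1) * a * (g.1 * (g⁻¹ : GL ι F).1) := by
              simp only [mul_assoc]
          _ = a := by rw [e2, one_mul, mul_one]
      rw [this]
      exact ha
    have h3 := h _ ha'
    calc a * (g.1 * k * (g⁻¹ : GL ι F).1)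
        = (g.1 * (g⁻¹ : GL ι F).1) * a * (g.1 * k * (g⁻¹ : GL ι F).1) := by rw [e2, one_mul]
      _ = g.1 * (((g⁻¹ : GL ι F).1 * a * g.1) * k) * (g⁻¹ : GL ι F).1 := by
          simp only [mul_assoc]
      _ = g.1 * (k * ((g⁻¹ : GL ι F).1 * a * g.1)) * (g⁻¹ : GL ι F).1 := by rw [h3]
      _ = (g.1 * k * (g⁻¹ : GL ι F).1) * a * (g.1 * (g⁻¹ : GL ι F).1) := by
          simp only [mul_assoc]
      _ = (g.1 * k * (g⁻¹ : GL ι F).1) * a := by rw [e2, mul_one]
  · intro h a ha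
    have ha' := (hg' a).1 ha
    have h3 := h _ ha'
    have h5 : g.1 * (a * k) * (g⁻¹ : GL ι F).1 = g.1 * (k * a) * (g⁻¹ : GL ι F).1 := by
      calc g.1 * (a * k) * (g⁻¹ : GL ι F).1
          = g.1 * a * ((g⁻¹ : GL ι F).1 * g.1) * k * (g⁻¹ : GL ι F).1 := by
            rw [e1, mul_one]; simp only [mul_assoc]
        _ = (g.1 * a * (g⁻¹ : GL ι F).1) * (g.1 * k * (g⁻¹ : GL ι F).1) := by
            simp only [mul_assoc]
        _ = (g.1 * k * (g⁻¹ : GL ι F).1) * (g.1 * a * (g⁻¹ : GL ι F).1) := h3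
        _ = g.1 * k * ((g⁻¹ : GL ι F).1 * g.1) * a * (g⁻¹ : GL ι F).1 := by
            simp only [mul_assoc]
        _ = g.1 * (k * a) * (g⁻¹ : GL ι F).1 := by
            rw [e1, mul_one]; simp only [mul_assoc]
    have h6 := (Units.mul_left_inj (g⁻¹ : GL ι F)).1 h5
    exact (Units.mul_right_inj g).1 h6

/-- G1 -/
theorem qp_or_class [Fintype F] {n : ℕ} (hn : 3 ≤ n) (H : Subgroup (GL (Fin n) F)) :
    Cls n H ∨ (ActsIrreducibly (matrixSet H) ∧ QP H) := by
  classical
  by_cases hcls : Cls n H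
  · exact Or.inl hcls
  right
  have hirr : ActsIrreducibly (matrixSet H) := by
    by_contra hirr
    unfold ActsIrreducibly at hirr
    push Not at hirr
    obtain ⟨W, hW, h0, h1⟩ := hirr
    exact hcls (cls_subspace h0 h1 (le_subspaceStabilizer hW))
  refine ⟨hirr, ?_⟩
  intro N hNH hnrm
  have : Nonempty (Fin n) := ⟨⟨0, by omega⟩⟩
  obtain ⟨A, hAdef⟩ : ∃ A, A = env N := ⟨_, rfl⟩
  have hA : H ≤ subalgebraNormalizer A := hAdef ▸ nrm_env hnrm
  obtain ⟨Z, hZdef⟩ : ∃ Z, Z = A ⊓ Subalgebra.centralizer F (A : Set (Matrix (Fin n) (Fin n) F)) :=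
    ⟨_, rfl⟩
  have hZ : H ≤ subalgebraNormalizer Z := fun g hg => hZdef ▸ normalizer_center (hA hg)
  have hZc : ∀ x ∈ Z, ∀ y ∈ Z, x * y = y * x := by
    intro x hx y hy
    rw [hZdef] at hx hy
    have h1 := (Algebra.mem_inf.1 hx).1
    have h2 := (Algebra.mem_inf.1 hy).2
    exact (Subalgebra.mem_centralizer_iff F).1 h2 x h1
  rcases comm_dichotomy H hirr Z hZ hZc with ⟨t, m, D, hD, hHD⟩ | hinv
  · exact (hcls (cls_decomp hD hHD)).elim
  by_cases hne : ∃ x ∈ Z, ∀ c : F, x ≠ c • 1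
  · obtain ⟨r, K', hr, hK', hHK'⟩ := prime_subfield H Z hZ hZc hinv hne
    exact (hcls (cls_field hr hK' hHK')).elim
  push Not at hne
  have hc : ∀ z ∈ A, (∀ a ∈ A, z * a = a * z) → ∃ c : F, z = c • 1 := by
    intro z hz hza
    apply hne z
    rw [hZdef]
    refine Algebra.mem_inf.2 ⟨hz, ?_⟩
    rw [Subalgebra.mem_centralizer_iff]
    intro a ha
    exact (hza a ha).symm
  have hss : SS A := ss_of_irr H hirr A hA
  obtain ⟨a, ⟨ψ⟩⟩ := exists_algEquiv_matrix A hss hc
  obtain ⟨b, e, P, hψ⟩ := matrix_rep_std (A.val.comp ψ.toAlgHom)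
  have hmemA : ∀ x, x ∈ A ↔ ∃ X, x = embL e P X := by
    intro x
    constructor
    · intro hx
      refine ⟨ψ.symm ⟨x, hx⟩, ?_⟩
      rw [← hψ]
      simp
    · rintro ⟨X, rfl⟩
      rw [← hψ]
      exact (ψ X).2
  have hcard : n = a * b := by
    have := Fintype.card_congr e
    simpa using this
  by_cases ha1 : a = 1
  · left
    subst ha1
    intro x hx
    have hxA : (x : Matrix (Fin n) (Fin n) F) ∈ A := by
      rw [hAdef]
      exact Algebra.subset_adjoin ⟨x, hx, rfl⟩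
    obtain ⟨X, hX⟩ : ∃ X, X = ψ.symm ⟨x.1, hxA⟩ := ⟨_, rfl⟩
    have hX1 : X = (X 0 0) • (1 : Matrix (Fin 1) (Fin 1) F) := by
      ext i j
      have hi : i = 0 := Subsingleton.elim _ _
      have hj : j = 0 := Subsingleton.elim _ _
      subst hi; subst hj
      simp
    have h1 : (⟨x.1, hxA⟩ : A) = (X 0 0) • (1 : A) := by
      have h2 := congrArg ψ hX1
      rw [map_smul, map_one, hX, AlgEquiv.apply_symm_apply, ← hX] at h2
      exact h2
    have hx1 : x.1 = (X 0 0) • (1 : Matrix (Fin n) (Fin n) F) := congrArg Subtype.val h1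
    rw [mem_scalars_iff]
    have hne0 : X 0 0 ≠ 0 := by
      intro h0
      rw [h0, zero_smul] at hx1
      exact x.ne_zero hx1
    exact ⟨Units.mk0 _ hne0, hx1⟩
  by_cases hb1 : b = 1
  · right
    rw [← hAdef]
    have h1 : Module.finrank F A = a * a := by
      rw [← ψ.toLinearEquiv.finrank_eq]
      simp [Module.finrank_matrix]
    have h2 : Module.finrank F (Matrix (Fin n) (Fin n) F) = n * n := by
      simp [Module.finrank_matrix]
    apply Algebra.toSubmodule_eq_top.1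
    apply Submodule.eq_top_of_finrank_eq
    rw [Subalgebra.finrank_toSubmodule, h1, h2, hcard, hb1]
    ring
  have ha2 : 2 ≤ a := by
    rcases Nat.lt_or_ge a 2 with h | h
    · interval_cases a
      · omega
      · omega
    · exact h
  have hb2 : 2 ≤ b := by
    rcases Nat.lt_or_ge b 2 with h | h
    · interval_cases b
      · omega
      · omega
    · exact h
  have hHT : H ≤ tensorProductSubgroup a b e P := by
    intro h hh
    apply mem_tensorProductSubgroup
    intro X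
    have h1 : embL e P X ∈ A := (hmemA _).2 ⟨X, rfl⟩
    have h2 := (hA hh _).1 h1
    exact (hmemA _).1 h2
  exfalso
  rcases lt_trichotomy a b with hlt | heq | hlt
  · exact hcls (cls_tensor ha2 hlt hHT)
  · subst heq
    by_cases h3 : 3 ≤ a
    · obtain ⟨e', he'⟩ := tensor_le_wreath e P
      exact hcls (cls_wreath h3 le_rfl (hHT.trans he'))
    · obtain rfl : a = 2 := by omega
      obtain ⟨Q, hQ, hQle⟩ := tensor_two_two e P
      by_cases ho : Odd (Fintype.card F)
      · exact hcls (cls_quadratic hQ ho (hHT.trans hQle))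
      · obtain ⟨hs, hle, -⟩ := polar_symplectic (two_eq_zero_of_not_odd ho) Q hQ
        exact hcls (cls_symplectic hs ⟨2, by omega⟩ (by omega) (hHT.trans (hQle.trans hle)))
  · rw [tensor_swap] at hHT
    exact hcls (cls_tensor hb2 hlt hHT)

end Cfsg.Agent.Lib.Helper60.Asch
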