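import Cfsg.Agent.Lib.Helper13.Asch.Defs2

set_option autoImplicit false

namespace Cfsg.Agent.Lib.Helper60.Asch

open Cfsg Cfsg.Geo Matrix Cfsg.Agent.Lib.Helper13.Asch
open scoped Kronecker MatrixGroups

variable {ι : Type} [Fintype ι] [DecidableEq ι] {F : Type*} [Field F]

/-- G2 -/
theorem exists_minNormal [Finite F] (H : Subgroup (GL ι F)) (hH : ¬ H ≤ scalars ι F) :
    ∃ N, MinNormal H N := by
  classical
  let S : Set (Subgroup (GL ι F)) :=
    {N | N ≤ H ∧ Nrm H N ∧ H ⊓ scalars ι F ≤ N ∧ ¬ N ≤ scalars ι F}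
  have hS : S.Nonempty :=
    ⟨H, le_rfl, fun h hh x hx => H.mul_mem (H.mul_mem hh hx) (H.inv_mem hh), inf_le_left, hH⟩
  obtain ⟨N, hN, hmin⟩ := WellFounded.has_min
    (wellFounded_lt : WellFounded ((· < ·) : Subgroup (GL ι F) → Subgroup (GL ι F) → Prop)) S hS
  obtain ⟨h1, h2, h3, h4⟩ := hN
  refine ⟨N, h1, h2, h3, h4, ?_⟩
  intro M hM1 hM2 hM3
  by_cases hsc : M ≤ scalars ι F
  · left
    exact le_antisymm (le_inf (hM2.trans h1) hsc) hM1
  · right
    have hMS : M ∈ S := ⟨hM2.trans h1, hM3, hM1, hsc⟩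
    have := hmin M hMS
    exact eq_of_le_of_not_lt hM2 this

end Cfsg.Agent.Lib.Helper60.Asch
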