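import Cfsg.Agent.Lib.Helper13.Asch.Defs3

set_option autoImplicit false

/-! constructors for `InCls`, and parity of the field. -/

namespace Cfsg.Agent.Lib.Helper60.Asch

open Cfsg Cfsg.Geo Matrix Cfsg.Agent.Lib.Helper13.Asch
open scoped Kronecker MatrixGroups

variable {F : Type*} [Field F] [Fintype F] {n : ℕ} {H : Subgroup (GL (Fin n) F)}

lemma inCls_subspace {W : Submodule F (Fin n → F)} (h0 : W ≠ ⊥) (h1 : W ≠ ⊤)
    (h : H ≤ subspaceStabilizer W) : InCls n H :=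
  ⟨_, Or.inl ⟨W, h0, h1, rfl⟩, h⟩

lemma inCls_decomp {t m : ℕ} {D : Fin t → Submodule F (Fin n → F)} (hD : IsMDecomposition m D)
    (h : H ≤ decompositionStabilizer D) : InCls n H :=
  ⟨_, Or.inr (Or.inr (Or.inr (Or.inl ⟨t, m, D, hD, rfl⟩))), h⟩

lemma inCls_field {r : ℕ} {K : Subalgebra F (Matrix (Fin n) (Fin n) F)} (hr : r.Prime)
    (hK : IsFieldSubalgebra r K) (h : H ≤ subalgebraNormalizer K) : InCls n H :=
  ⟨_, Or.inr (Or.inr (Or.inr (Or.inr (Or.inl ⟨r, K, hr, hK, rfl⟩)))), h⟩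

lemma inCls_tensor {n₁ n₂ : ℕ} {e : Fin n ≃ Fin n₁ × Fin n₂} {P : GL (Fin n) F} (h1 : 2 ≤ n₁)
    (h2 : n₁ < n₂) (h : H ≤ tensorProductSubgroup n₁ n₂ e P) : InCls n H :=
  ⟨_, Or.inr (Or.inr (Or.inr (Or.inr (Or.inr (Or.inl ⟨n₁, n₂, e, P, h1, h2, rfl⟩))))), h⟩

lemma inCls_subfield {F₀ : Subfield F} {r : ℕ} {P : GL (Fin n) F} (hr : r.Prime)
    (hc : Fintype.card F = Nat.card F₀ ^ r) (h : H ≤ subfieldSubgroup F₀ P) : InCls n H :=
  ⟨_, Or.inr (Or.inr (Or.inr (Or.inr (Or.inr (Or.inr (Or.inl ⟨F₀, r, P, hr, hc, rfl⟩)))))), h⟩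

lemma inCls_sympType {r : ℕ} {R : Subgroup (GL (Fin n) F)} (hR : IsLinearSymplecticTypeData r R)
    (h : H ≤ subgroupNormalizer R) : InCls n H :=
  ⟨_, Or.inr (Or.inr (Or.inr (Or.inr (Or.inr (Or.inr (Or.inr (Or.inl ⟨r, R, hR, rfl⟩))))))), h⟩

lemma inCls_wreath {m t : ℕ} {e : Fin n ≃ (Fin t → Fin m)} {P : GL (Fin n) F} (hm : 3 ≤ m)
    (ht : 2 ≤ t) (h : H ≤ tensorWreathSubgroup m t e P) : InCls n H :=
  ⟨_, Or.inr (Or.inr (Or.inr (Or.inr (Or.inr (Or.inr (Or.inr (Or.inr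
    (Or.inl ⟨m, t, e, P, hm, ht, rfl⟩)))))))), h⟩

lemma inCls_symplectic {f : (Fin n → F) → (Fin n → F) → F} (hf : IsSymplecticForm f)
    (he : Even n) (h4 : 4 ≤ n) (h : H ≤ similarityGroup f) : InCls n H :=
  ⟨_, Or.inr (Or.inr (Or.inr (Or.inr (Or.inr (Or.inr (Or.inr (Or.inr (Or.inr
    (Or.inl ⟨f, hf, he, h4, rfl⟩))))))))), h⟩

lemma inCls_unitary {σ : F ≃+* F} {f : (Fin n → F) → (Fin n → F) → F} (hf : IsUnitaryForm σ f)
    (h3 : 3 ≤ n) (h : H ≤ similarityGroup f) : InCls n H :=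
  ⟨_, Or.inr (Or.inr (Or.inr (Or.inr (Or.inr (Or.inr (Or.inr (Or.inr (Or.inr (Or.inr
    (Or.inl ⟨σ, f, hf, h3, rfl⟩)))))))))), h⟩

lemma inCls_quadratic {Q : (Fin n → F) → F} (hQ : IsNondegenerateQuadraticForm Q)
    (ho : Odd (Fintype.card F)) (h3 : 3 ≤ n) (h : H ≤ quadSimilarityGroup Q) : InCls n H :=
  ⟨_, Or.inr (Or.inr (Or.inr (Or.inr (Or.inr (Or.inr (Or.inr (Or.inr (Or.inr (Or.inr
    (Or.inr ⟨Q, hQ, ho, h3, rfl⟩)))))))))), h⟩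

lemma cls_subspace {W : Submodule F (Fin n → F)} (h0 : W ≠ ⊥) (h1 : W ≠ ⊤)
    (h : H ≤ subspaceStabilizer W) : Cls n H :=
  Or.inl ⟨W, h0, h1, h⟩

lemma cls_decomp {t m : ℕ} {D : Fin t → Submodule F (Fin n → F)} (hD : IsMDecomposition m D)
    (h : H ≤ decompositionStabilizer D) : Cls n H :=
  Or.inr (Or.inl ⟨t, m, D, hD, h⟩)

lemma cls_field {r : ℕ} {K : Subalgebra F (Matrix (Fin n) (Fin n) F)} (hr : r.Prime)
    (hK : IsFieldSubalgebra r K) (h : H ≤ subalgebraNormalizer K) : Cls n H :=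
  Or.inr (Or.inr (Or.inl ⟨r, K, hr, hK, h⟩))

lemma cls_tensor {n₁ n₂ : ℕ} {e : Fin n ≃ Fin n₁ × Fin n₂} {P : GL (Fin n) F} (h1 : 2 ≤ n₁)
    (h2 : n₁ < n₂) (h : H ≤ tensorProductSubgroup n₁ n₂ e P) : Cls n H :=
  Or.inr (Or.inr (Or.inr (Or.inl ⟨n₁, n₂, e, P, h1, h2, h⟩)))

lemma cls_subfield {F₀ : Subfield F} {r : ℕ} {P : GL (Fin n) F} (hr : r.Prime)
    (hc : Fintype.card F = Nat.card F₀ ^ r) (h : H ≤ subfieldSubgroup F₀ P) : Cls n H :=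
  Or.inr (Or.inr (Or.inr (Or.inr (Or.inl ⟨F₀, r, P, hr, hc, h⟩))))

lemma cls_sympType {r m : ℕ} {R : Subgroup (GL (Fin n) F)} (hR : IsLinearSymplecticTypeData r R)
    (hm : 1 ≤ m) (hn : n = r ^ m) (h : H ≤ subgroupNormalizer R) : Cls n H :=
  Or.inr (Or.inr (Or.inr (Or.inr (Or.inr (Or.inl ⟨r, m, R, hR, hm, hn, h⟩)))))

lemma cls_wreath {m t : ℕ} {e : Fin n ≃ (Fin t → Fin m)} {P : GL (Fin n) F} (hm : 3 ≤ m)
    (ht : 2 ≤ t) (h : H ≤ tensorWreathSubgroup m t e P) : Cls n H :=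
  Or.inr (Or.inr (Or.inr (Or.inr (Or.inr (Or.inr (Or.inl ⟨m, t, e, P, hm, ht, h⟩))))))

lemma cls_symplectic {f : (Fin n → F) → (Fin n → F) → F} (hf : IsSymplecticForm f)
    (he : Even n) (h4 : 4 ≤ n) (h : H ≤ similarityGroup f) : Cls n H :=
  Or.inr (Or.inr (Or.inr (Or.inr (Or.inr (Or.inr (Or.inr (Or.inl ⟨f, hf, he, h4, h⟩)))))))

lemma cls_unitary {σ : F ≃+* F} {f : (Fin n → F) → (Fin n → F) → F} (hf : IsUnitaryForm σ f)
    (h : H ≤ similarityGroup f) : Cls n H :=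
  Or.inr (Or.inr (Or.inr (Or.inr (Or.inr (Or.inr (Or.inr (Or.inr (Or.inl ⟨σ, f, hf, h⟩))))))))

lemma cls_quadratic {Q : (Fin n → F) → F} (hQ : IsNondegenerateQuadraticForm Q)
    (ho : Odd (Fintype.card F)) (h : H ≤ quadSimilarityGroup Q) : Cls n H :=
  Or.inr (Or.inr (Or.inr (Or.inr (Or.inr (Or.inr (Or.inr (Or.inr (Or.inr ⟨Q, hQ, ho, h⟩))))))))

omit [Fintype F] in
lemma two_eq_zero_of_ringChar (h : ringChar F = 2) : (2 : F) = 0 := by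
  have := ringChar.Nat.cast_ringChar (R := F)
  rw [h] at this
  exact_mod_cast this

lemma two_eq_zero_of_not_odd (h : ¬ Odd (Fintype.card F)) : (2 : F) = 0 := by
  apply two_eq_zero_of_ringChar
  rw [FiniteField.even_card_iff_char_two]
  rw [Nat.not_odd_iff] at h
  exact h

lemma two_ne_zero_of_odd (h : Odd (Fintype.card F)) : (2 : F) ≠ 0 := by
  intro h2
  have h3 : ringChar F = 2 := by
    have h4 : ringChar F ∣ 2 := by
      rw [← ringChar.spec]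
      exact_mod_cast h2
    rcases (Nat.dvd_prime Nat.prime_two).1 h4 with h5 | h5
    · exact absurd h5 (CharP.ringChar_ne_one)
    · exact h5
  rw [FiniteField.even_card_iff_char_two] at h3
  rw [Nat.odd_iff] at h
  omega

end Cfsg.Agent.Lib.Helper60.Asch
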